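import Cfsg.Agent.Lib.Helper18.StSteinE6.H00
import Cfsg.Agent.Lib.Helper18.StSteinE6.H01
import Cfsg.Agent.Lib.Helper18.StSteinE6.G0
import Cfsg.Agent.Lib.Helper18.StSteinE6.G1
import Cfsg.Agent.Lib.Helper18.StSteinE6.C0
import Cfsg.Agent.Lib.Helper18.StCert.E6x

/-!
# Type E₆: the group presented by (R1), (R2) is centrally closed, over any field

Assembly of the checks of this folder: every central extension of the group presented by Steinberg's
relators (R1), (R2) of type E₆ over an arbitrary field splits, and homomorphisms from it lift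
uniquely through central extensions.
-/

set_option autoImplicit false

namespace Cfsg.Agent.Lib.Helper18.StAbs

open Cfsg Cfsg.Lie Cfsg.Lie.ChevalleyDatum

set_option maxRecDepth 100000 in
theorem cover_gcE6 : gcE6.map Prod.fst = List.range chevE6.nroots := by decide +kernel

set_option maxRecDepth 100000 in
theorem h1cover_E6 : (h1E6_00 ++ h1E6_01).map Prod.fst =
    List.range chevE6.nroots := by decide +kernel

theorem h1_E6 : ∀ α β, ComP chevE6 α β →
    ∃ a b C, SumP chevE6 a b β C ∧ ComP chevE6 α a ∧ ComP chevE6 α b := by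
  intro α β h
  obtain ⟨x, hx, rfl⟩ := cover_of_eq' chevE6.nroots _ h1cover_E6 α h.1
  simp only [List.mem_append] at hx
  rcases hx with hx | hx
  · exact h1_of_chunkF chevE6 _ h1chk_E6_00 x hx β h
  · exact h1_of_chunkF chevE6 _ h1chk_E6_01 x hx β h

theorem good_E6 : ∀ c ∈ gcE6, gB chevE6 c = true := by
  intro c hc
  unfold gcE6 at hc
  simp only [List.mem_append] at hc
  rcases hc with hc | hc
  · exact g_of_chunkF chevE6 _ gchk_E6_0 c hc
  · exact g_of_chunkF chevE6 _ gchk_E6_1 c hc

theorem cov_E6 : ∀ r < chevE6.nroots, covRowB chevE6 gcE6 r = true := by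
  intro r hr
  have hn : chevE6.nroots = 72 := by decide
  rw [hn] at hr
  exact cov_of_chunkF chevE6 gcE6 _ covchk_E6 r (List.mem_range.mpr hr)

open Cfsg.Agent.Lib.Helper17 in
/-- every central extension of the group presented by (R1), (R2) of type E₆ splits -/
theorem cover_section_E6 {K : Type*} [Field K] {E : Type*} [Group E]
    (ψ : E →* chevE6.SteinbergCover K) (hs : Function.Surjective ψ)
    (hc : ψ.ker ≤ Subgroup.center E) :
    ∃ φ : chevE6.SteinbergCover K →* E, ψ.comp φ = MonoidHom.id _ := by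
  classical
  have hD : chevE6 ∈ [chevG2, chevB2, chevD4, chevF4, chevE6, chevE7, chevE8] := by simp
  have hX : Rel chevE6 (XP chevE6 (chevE6.steinbergRelsAB K)) :=
    pres_rel chevE6 _ (fun g hg => hg)
  let θ : chevE6.SteinbergCover K →* ↥(chevE6.group K) :=
    PresentedGroup.toGroup (relsAB_lift (K := K) chevE6 hD)
  let π : chevE6.SteinbergCover K →* GL chevE6.Idx K := (chevE6.group K).subtype.comp θ
  have hπ : ∀ r < chevE6.nroots, ∀ t,
      π (XP chevE6 (chevE6.steinbergRelsAB K) r t) = xU chevE6 hD r t :=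
    fun r _ t => lift_stX (K := K) chevE6 hD r t
  have hinj : ∀ g < chevE6.nroots, ∀ v v' : K, XP chevE6 (chevE6.steinbergRelsAB K) g v =
      XP chevE6 (chevE6.steinbergRelsAB K) g v' → v = v' := by
    intro g hg v v' h
    have h1 := congrArg π h
    rw [hπ g hg, hπ g hg] at h1
    exact xU_inj chevE6 hD g hg v v' h1
  obtain ⟨hb, hr⟩ := stein_hyps chevE6 gcE6 cover_gcE6 good_E6 cov_E6
  obtain ⟨hY, hpsi⟩ := stein_rel ψ hs hc (baseF gcE6) sl_E6 hX hinj h1_E6 hb hr
  have hge : ∀ γ, chevE6.nroots ≤ γ → ∀ t : K,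
      xs chevE6 (XP chevE6 (chevE6.steinbergRelsAB K)) ψ hs (baseF gcE6) γ t = 1 :=
    fun γ hγ t => xs_ge ψ hs (baseF gcE6) γ hγ t
  refine ⟨PresentedGroup.toGroup (relsAB_liftY _ hY hge), ?_⟩
  apply PresentedGroup.ext
  intro p
  rw [MonoidHom.comp_apply, PresentedGroup.toGroup.of, MonoidHom.id_apply,
    hpsi p.1.val p.1.isLt p.2]
  unfold XP ChevalleyDatum.stX
  rw [dif_pos p.1.isLt]
  rfl

/-- over any field, homomorphisms from the group presented by (R1), (R2) of type E₆ lift uniquely
through central extensions -/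
theorem univ_E6 {K : Type*} [Field K] {G₁ E : Type*} [Group G₁] [Group E] (π₁ : E →* G₁)
    (hπ₁ : Function.Surjective π₁) (hc : π₁.ker ≤ Subgroup.center E)
    (σ : chevE6.SteinbergCover K →* G₁) :
    ∃! τ : chevE6.SteinbergCover K →* E, π₁.comp τ = σ := by
  have hne : chevE6 ∈ [chevB2, chevG2] → ∃ x : K, x ≠ 0 ∧ x ≠ 1 := by
    intro h
    exfalso
    simp only [List.mem_cons, List.mem_nil_iff, or_false] at h
    rcases h with h | h
    · have h1 := congrArg ChevalleyDatum.nroots h
      exact absurd h1 (by decide)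
    · have h1 := congrArg ChevalleyDatum.nroots h
      exact absurd h1 (by decide)
  have hperf : commutator (chevE6.SteinbergCover K) = ⊤ :=
    StCov.cover_perfect chevE6 (by simp) hne
  obtain ⟨τ, hτ⟩ := CExt.lift_of_section
    (fun P ψ hs hc' => cover_section_E6 ψ hs hc') π₁ hπ₁ hc σ
  exact ⟨τ, hτ, fun τ' hτ' => CExt.lift_unique hperf π₁ hc τ' τ (by rw [hτ', hτ])⟩

end Cfsg.Agent.Lib.Helper18.StAbs
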