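import Cfsg.Agent.Lib.Helper18.StSteinE6.D0
import Cfsg.Agent.Lib.Helper18.StSteinE6.D1

/-!
# Type E₆: the decompositions of the roots, all data
-/

set_option autoImplicit false

namespace Cfsg.Agent.Lib.Helper18.StAbs

open Cfsg Cfsg.Lie Cfsg.Lie.ChevalleyDatum

/-- the certificates of all roots -/
def gcE6 : List GCert :=
  gcE6_0 ++ gcE6_1

end Cfsg.Agent.Lib.Helper18.StAbs
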